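import Cfsg.Agent.FF.PlaneSL2
import Cfsg.Agent.Linear.Transvection
import Cfsg.Agent.Stability.NaturalPair
import Mathlib.FieldTheory.Finite.Basic

/-!
A natural pair gives a subgroup mapping onto `SL(2, p)`; consequences.
-/

set_option autoImplicit false

open Cfsg
open scoped commutatorElement MatrixGroups

namespace Cfsg.Agent.FF

variable {p : ℕ} [hp : Fact p.Prime] {G : Type*} [Group G]

theorem exists_hom_of_reps {X : Type*} [Group X] {u w : X} (hu : u ^ p = 1) (hw : w ^ p = 1)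
    (huw : Commute u w) (hd : Subgroup.zpowers u ⊓ Subgroup.zpowers w = ⊥) (hu1 : u ≠ 1)
    (hw1 : w ≠ 1) (S : Set X)
    (hS : ∀ g ∈ S, ∃ m : SL(2, ZMod p), Rep u w g (m : Matrix (Fin 2) (Fin 2) (ZMod p))) :
    ∃ φ : ↥(Subgroup.closure S) →* SL(2, ZMod p), ∀ g : ↥(Subgroup.closure S),
      ∀ m : SL(2, ZMod p), Rep u w (g : X) (m : Matrix (Fin 2) (Fin 2) (ZMod p)) → φ g = m := by
  have hex : ∀ g ∈ Subgroup.closure S, ∃ m : SL(2, ZMod p),
      Rep u w g (m : Matrix (Fin 2) (Fin 2) (ZMod p)) := by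
    intro g hg
    induction hg using Subgroup.closure_induction with
    | mem x hx => exact hS x hx
    | one => exact ⟨1, by simpa using Rep.one hu hw huw⟩
    | mul x y _ _ hx hy =>
      obtain ⟨m, hm⟩ := hx
      obtain ⟨m', hm'⟩ := hy
      exact ⟨m * m', by simpa using Rep.mul hu hw huw hm hm'⟩
    | inv x _ hx =>
      obtain ⟨m, hm⟩ := hx
      exact ⟨m⁻¹, Rep.inv hu hw huw hm⟩
  have huniq : ∀ {g : X} {m m' : SL(2, ZMod p)},
      Rep u w g (m : Matrix (Fin 2) (Fin 2) (ZMod p)) →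
      Rep u w g (m' : Matrix (Fin 2) (Fin 2) (ZMod p)) → m = m' := by
    intro g m m' hm hm'
    obtain ⟨a, b⟩ := coord_inj hu hw huw hd hu1 hw1 (hm.1.symm.trans hm'.1)
    obtain ⟨c, d⟩ := coord_inj hu hw huw hd hu1 hw1 (hm.2.symm.trans hm'.2)
    exact Linear.slTwo_ext a c b d
  choose f hf using hex
  refine ⟨MonoidHom.mk' (fun g => f g g.2) fun a b => huniq (hf _ (a * b).2)
    (by simpa using Rep.mul hu hw huw (hf _ a.2) (hf _ b.2)), fun g m hm => huniq (hf _ g.2) hm⟩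

/-- A natural pair gives a subgroup of `H` with quotient `SL(2, p)`. -/
theorem exists_hom_of_naturalPair [Finite G] {V H : Subgroup G} (hV : IsElementaryAbelian p V)
    (h : Stability.HasNaturalPair p H V) :
    ∃ (K : Subgroup G) (φ : K →* SL(2, ZMod p)), K ≤ H ∧ Function.Surjective φ := by
  obtain ⟨V1, a, b, u, l, hV1, ha, hb, huH, hlH, huN, hlN, h11, h12, h21, h22, hind⟩ := h
  set X := Subgroup.normalizer (V1 : Set G) with hX
  have hVX : V ≤ X := (Modules.comm_le_centralizer hV.1).trans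
    ((Subgroup.centralizer_le (SetLike.coe_subset_coe.2 hV1)).trans
      (Subgroup.centralizer_le_normalizer _))
  haveI : (V1.subgroupOf X).Normal := Subgroup.normal_in_normalizer
  set π := QuotientGroup.mk' (V1.subgroupOf X)
  have hπ : ∀ x y : X, π x = π y ↔ (x : G)⁻¹ * y ∈ V1 := fun x y => QuotientGroup.eq
  have hπ1 : ∀ x : X, π x = 1 ↔ (x : G) ∈ V1 := fun x => QuotientGroup.eq_one_iff x
  set A := π ⟨a, hVX ha⟩
  set B := π ⟨b, hVX hb⟩
  have hA : A ^ p = 1 := by
    rw [← map_pow, hπ1, SubgroupClass.coe_pow, hV.2 a ha]; exact one_mem _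
  have hB : B ^ p = 1 := by
    rw [← map_pow, hπ1, SubgroupClass.coe_pow, hV.2 b hb]; exact one_mem _
  have hAB : Commute A B :=
    (show Commute (⟨a, hVX ha⟩ : X) ⟨b, hVX hb⟩ from
      Subtype.ext (Modules.elemAb_comm hV ha hb)).map π
  have hd : Subgroup.zpowers A ⊓ Subgroup.zpowers B = ⊥ := by
    rw [eq_bot_iff]
    intro z hz
    obtain ⟨⟨i, hi⟩, ⟨j, hj⟩⟩ := Subgroup.mem_inf.1 hz
    have h0 : A ^ i * B ^ (-j) = 1 := by
      rw [zpow_neg, mul_inv_eq_one]; exact hi.trans hj.symm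
    rw [← map_zpow, ← map_zpow, ← map_mul, hπ1] at h0
    simp only [Subgroup.coe_mul, SubgroupClass.coe_zpow] at h0
    obtain ⟨⟨k, rfl⟩, -⟩ := hind i (-j) h0
    rw [Subgroup.mem_bot, ← hi]
    change A ^ ((p : ℤ) * k) = 1
    rw [zpow_mul, zpow_natCast, hA, one_zpow]
  have hp1 : ¬ (p : ℤ) ∣ 1 := fun h => hp.out.ne_one (by exact_mod_cast Int.eq_one_of_dvd_one (by omega) h)
  have hA1 : A ≠ 1 := by
    intro h0
    rw [hπ1] at h0
    exact hp1 (hind 1 0 (by simpa using h0)).1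
  have hB1 : B ≠ 1 := by
    intro h0
    rw [hπ1] at h0
    exact hp1 (hind 0 1 (by simpa using h0)).2
  have flip : ∀ x y : X, (x : G) * (y : G)⁻¹ ∈ V1 → π x = π y := by
    intro x y hxy
    rw [← mul_inv_eq_one, ← map_inv, ← map_mul, hπ1]
    exact hxy
  set U := π ⟨u, huN⟩
  set L := π ⟨l, hlN⟩
  have hU : Rep A B U ((Linear.upperT ((1 : ℕ) : ZMod p) : SL(2, ZMod p)) : Matrix _ _ (ZMod p)) := by
    refine Rep.upperT hA hB hAB ?_ ?_
    · rw [← map_inv, ← map_mul, ← map_mul]; exact flip _ _ h11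
    · rw [pow_one, ← map_inv, ← map_mul, ← map_mul, ← map_mul]; exact flip _ _ h12
  have hL : Rep A B L ((Linear.lowerT ((1 : ℕ) : ZMod p) : SL(2, ZMod p)) : Matrix _ _ (ZMod p)) := by
    refine Rep.lowerT hA hB hAB ?_ ?_
    · rw [← map_inv, ← map_mul, ← map_mul]; exact flip _ _ h22
    · rw [pow_one, ← hAB.eq, ← map_inv, ← map_mul, ← map_mul, ← map_mul]; exact flip _ _ h21
  obtain ⟨φ, hφ⟩ := exists_hom_of_reps hA hB hAB hd hA1 hB1 ({U, L} : Set (X ⧸ V1.subgroupOf X))
    (by rintro g (rfl | rfl); exacts [⟨_, hU⟩, ⟨_, hL⟩])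
  set K := Subgroup.closure ({u, l} : Set G)
  have hKX : K ≤ X := (Subgroup.closure_le _).2 (by rintro z (rfl | rfl) <;> assumption)
  have hKH : K ≤ H := (Subgroup.closure_le _).2 (by rintro z (rfl | rfl) <;> assumption)
  let f : K →* X ⧸ V1.subgroupOf X := π.comp (Subgroup.inclusion hKX)
  have hf : ∀ k : K, f k ∈ Subgroup.closure ({U, L} : Set (X ⧸ V1.subgroupOf X)) := by
    have hle : (Subgroup.closure ({⟨u, huN⟩, ⟨l, hlN⟩} : Set X)).map π ≤
        Subgroup.closure ({U, L} : Set (X ⧸ V1.subgroupOf X)) := by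
      rw [MonoidHom.map_closure, Set.image_pair]
    intro k
    refine hle ⟨Subgroup.inclusion hKX k, ?_, rfl⟩
    have key : K ≤ (Subgroup.closure ({⟨u, huN⟩, ⟨l, hlN⟩} : Set X)).map X.subtype := by
      rw [MonoidHom.map_closure, Set.image_pair]
      rfl
    obtain ⟨y, hy, hyk⟩ := key k.2
    rwa [show Subgroup.inclusion hKX k = y from Subtype.ext hyk.symm]
  refine ⟨K, φ.comp (f.codRestrict _ hf), hKH, ?_⟩
  rw [← MonoidHom.range_eq_top, eq_top_iff, ← Stability.SL2.closure_upperU_lowerU,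
    Subgroup.closure_le]
  rintro z (rfl | rfl)
  · refine ⟨⟨u, Subgroup.subset_closure (by simp)⟩, (hφ _ _ hU).trans ?_⟩
    apply Linear.slTwo_ext <;> simp [Matrix.SpecialLinearGroup.transvection_coe]
  · refine ⟨⟨l, Subgroup.subset_closure (by simp)⟩, (hφ _ _ hL).trans ?_⟩
    apply Linear.slTwo_ext <;> simp [Matrix.SpecialLinearGroup.transvection_coe]

/-- For odd `p` the Sylow 2-subgroups of `SL(2, p)` are not abelian. -/
theorem exists_noncommuting_two_elements (hp2 : p ≠ 2) :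
    ∃ Q : Subgroup SL(2, ZMod p), IsPGroup 2 Q ∧ ¬ IsMulCommutative Q := by
  obtain ⟨x, y, hxy⟩ := ZMod.sq_add_sq p (-1)
  obtain ⟨i, hi⟩ : ∃ i : SL(2, ZMod p),
      (i : Matrix (Fin 2) (Fin 2) (ZMod p)) = !![0, -1; 1, 0] :=
    ⟨⟨!![0, -1; 1, 0], by simp [Matrix.det_fin_two_of]⟩, rfl⟩
  obtain ⟨j, hj⟩ : ∃ j : SL(2, ZMod p),
      (j : Matrix (Fin 2) (Fin 2) (ZMod p)) = !![x, y; y, -x] :=
    ⟨⟨!![x, y; y, -x], by rw [Matrix.det_fin_two_of]; linear_combination -hxy⟩, rfl⟩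
  have hi4 : i ^ 4 = 1 := by
    apply Linear.slTwo_ext <;>
      simp [hi, pow_succ, Matrix.mul_apply, Fin.sum_univ_two]
  have hj2 : j * j = i * i := by
    apply Linear.slTwo_ext <;>
      simp [hi, hj, Matrix.mul_apply, Fin.sum_univ_two] <;>
      first | ring1 | linear_combination hxy
  have hj4 : j ^ 4 = 1 := by
    rw [show (4 : ℕ) = 2 * 2 from rfl, pow_mul, sq j, hj2, ← sq i, ← pow_mul]; exact hi4
  have hji : j * i * j⁻¹ = i⁻¹ := by
    rw [mul_inv_eq_iff_eq_mul, eq_inv_mul_iff_mul_eq]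
    apply Linear.slTwo_ext <;>
      simp [hi, hj, Matrix.mul_apply, Fin.sum_univ_two] <;>
      first | ring1 | linear_combination hxy
  have hne : i * j ≠ j * i := by
    intro he
    have h1 : i⁻¹ = i := by rw [← hji, ← he, mul_inv_cancel_right]
    have h2 : i * i = 1 := by
      calc i * i = i * i⁻¹ := by rw [h1]
        _ = 1 := mul_inv_cancel i
    have h3 : ((i * i : SL(2, ZMod p)) : Matrix (Fin 2) (Fin 2) (ZMod p)) 0 0 = 1 := by
      rw [h2]; simp
    simp [hi, Matrix.mul_apply, Fin.sum_univ_two] at h3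
    have h5 : ((2 : ℕ) : ZMod p) = 0 := by push_cast; linear_combination -h3
    rw [ZMod.natCast_eq_zero_iff] at h5
    exact hp2 ((Nat.prime_dvd_prime_iff_eq hp.out Nat.prime_two).1 h5)
  have hI : IsPGroup 2 (Subgroup.zpowers i) :=
    IsPGroup.of_card_dvd_pow (n := 2) (by
      rw [Nat.card_zpowers]; exact orderOf_dvd_of_pow_eq_one hi4)
  have hJ : IsPGroup 2 (Subgroup.zpowers j) :=
    IsPGroup.of_card_dvd_pow (n := 2) (by
      rw [Nat.card_zpowers]; exact orderOf_dvd_of_pow_eq_one hj4)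
  have hn : Subgroup.zpowers j ≤ Subgroup.normalizer (Subgroup.zpowers i : Set SL(2, ZMod p)) := by
    rw [Subgroup.zpowers_le, Subgroup.mem_normalizer_iff_map_conj_eq, MonoidHom.map_zpowers]
    change Subgroup.zpowers (j * i * j⁻¹) = _
    rw [hji, Subgroup.zpowers_inv]
  refine ⟨Subgroup.zpowers j ⊔ Subgroup.zpowers i, hJ.to_sup_of_normal_right' hI hn, fun hc => ?_⟩
  exact hne (Modules.comm_iff.1 hc _ (Subgroup.mem_sup_right (Subgroup.mem_zpowers i)) _
    (Subgroup.mem_sup_left (Subgroup.mem_zpowers j)))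

/-- If `H` has abelian Sylow 2-subgroups it has no natural pair. -/
theorem sylow_two_not_comm_of_naturalPair [Finite G] (hp2 : p ≠ 2) {V H : Subgroup G}
    (hV : IsElementaryAbelian p V) (h : Stability.HasNaturalPair p H V) (T : Sylow 2 H) :
    ¬ IsMulCommutative T := by
  intro hT
  obtain ⟨K, φ, hKH, hφ⟩ := exists_hom_of_naturalPair hV h
  obtain ⟨Q, hQp, hQ⟩ := exists_noncommuting_two_elements (p := p) hp2
  obtain ⟨S, hS⟩ := hQp.exists_le_sylow
  haveI : Fact (Nat.Prime 2) := ⟨Nat.prime_two⟩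
  obtain ⟨S0, hS0⟩ := Sylow.mapSurjective_surjective hφ 2 S
  obtain ⟨T1, hT1⟩ := (S0.isPGroup'.map (Subgroup.inclusion hKH)).exists_le_sylow
  obtain ⟨g, hg⟩ := MulAction.exists_smul_eq H T T1
  have hT1c : IsMulCommutative (T1 : Subgroup H) := by
    rw [← hg, PSolv.coe_sylow_smul]
    exact Modules.comm_map _ hT
  refine hQ (Modules.comm_iff.2 fun a ha b hb => ?_)
  have hmem : ∀ z ∈ Q, ∃ k : K, k ∈ (S0 : Subgroup K) ∧ φ k = z := by
    intro z hz
    have : z ∈ (S0 : Subgroup K).map φ := by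
      rw [← Sylow.coe_mapSurjective hφ, hS0]; exact hS hz
    obtain ⟨k, hk, hkz⟩ := this
    exact ⟨k, hk, hkz⟩
  obtain ⟨x, hx, rfl⟩ := hmem a ha
  obtain ⟨y, hy, rfl⟩ := hmem b hb
  have h1 := Modules.comm_iff.1 hT1c _ (hT1 ⟨x, hx, rfl⟩) _ (hT1 ⟨y, hy, rfl⟩)
  rw [← map_mul, ← map_mul, Subgroup.inclusion_injective hKH (by simpa using h1 :
    Subgroup.inclusion hKH (x * y) = Subgroup.inclusion hKH (y * x))]

/-- A `p`-soluble group with a natural pair forces `p = 3` and an `SL(2, 3)` section. -/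
theorem section_of_naturalPair [Finite G] (hp2 : p ≠ 2) {V H : Subgroup G}
    (hV : IsElementaryAbelian p V) (hsep : IsPSolvable p H)
    (h : Stability.HasNaturalPair p H V) :
    p = 3 ∧ ∃ (K L : Subgroup G) (_hL : (L.subgroupOf K).Normal), K ≤ H ∧
      Nonempty ((K ⧸ L.subgroupOf K) ≃* SL(2, ZMod 3)) := by
  obtain ⟨K, φ, hKH, hφ⟩ := exists_hom_of_naturalPair hV h
  have hps : IsPSolvable p SL(2, ZMod p) := PSolv.isPSolvable_of_surjective φ hφ
    (PSolv.isPSolvable_of_injective (Subgroup.inclusion hKH) (Subgroup.inclusion_injective hKH) hsep)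
  have hp3 : p = 3 := by
    by_contra hne
    have h5 : 5 ≤ p := by
      rcases hp.out.eq_two_or_odd' with h2 | ⟨k, hk⟩
      · exact absurd h2 hp2
      · have := hp.out.two_le; omega
    have hsimple : IsSimpleGroup (SL(2, ZMod p) ⧸ Subgroup.center SL(2, ZMod p)) :=
      Linear.isSimpleGroup_PSL_fin 2 le_rfl (fun _ => by rw [Nat.card_zmod]; omega)
    have hq := PSolv.isPSolvable_quotient hps (Subgroup.center SL(2, ZMod p))
    haveI := hsimple
    have hc := Linear.card_PSL_two_mul (F := ZMod p)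
    rw [ZMod.card] at hc
    have hg : Nat.gcd 2 (p - 1) ≤ 2 := Nat.le_of_dvd (by norm_num) (Nat.gcd_dvd_left 2 (p - 1))
    have hg0 : 0 < Nat.gcd 2 (p - 1) := Nat.gcd_pos_of_pos_left _ (by norm_num)
    have hpos : (p - 1) * (p + 1) ≠ 0 := Nat.mul_ne_zero (by omega) (by omega)
    rcases PSolv.pCore_ne_bot_or_pPrimeCore_ne_bot hq with h1 | h1
    · -- a `p`-group
      have ht := (hsimple.eq_bot_or_eq_top_of_normal _ inferInstance).resolve_left h1
      have hP : IsPGroup p (SL(2, ZMod p) ⧸ Subgroup.center SL(2, ZMod p)) := by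
        have := PSolv.isPGroup_pCore p (SL(2, ZMod p) ⧸ Subgroup.center SL(2, ZMod p))
        rw [ht] at this
        exact this.of_equiv Subgroup.topEquiv
      obtain ⟨n, hn⟩ := IsPGroup.iff_card.1 hP
      change Nat.gcd 2 (p - 1) * Nat.card (SL(2, ZMod p) ⧸ Subgroup.center SL(2, ZMod p)) = _ at hc
      rw [hn] at hc
      obtain ⟨k, hk⟩ : 2 ∣ p + 1 := by
        rcases hp.out.eq_two_or_odd' with h2 | ⟨k, hk⟩
        · omega
        · exact ⟨k + 1, by omega⟩
      rcases n with _ | n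
      · rw [pow_zero, mul_one] at hc
        have h6 : 2 < p * (p - 1) * (p + 1) :=
          calc 2 < p := by omega
            _ ≤ p * (p - 1) := Nat.le_mul_of_pos_right _ (by omega)
            _ ≤ _ := Nat.le_mul_of_pos_right _ (by omega)
        omega
      · have hdvd : (p + 1) ∣ Nat.gcd 2 (p - 1) * p ^ (n + 1) := hc ▸ Dvd.intro_left _ rfl
        have hco : Nat.Coprime (p + 1) (p ^ (n + 1)) :=
          Nat.Coprime.pow_right _ ((Nat.coprime_self_add_left).2 (Nat.coprime_one_left p))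
        have := Nat.le_of_dvd hg0 (hco.dvd_of_dvd_mul_right hdvd)
        omega
    · -- a `p'`-group
      have ht := (hsimple.eq_bot_or_eq_top_of_normal _ inferInstance).resolve_left h1
      have hco := PSolv.coprime_card_pPrimeCore p (SL(2, ZMod p) ⧸ Subgroup.center SL(2, ZMod p))
      rw [ht, Subgroup.card_top] at hco
      have hd : p ∣ Nat.gcd 2 (p - 1) *
          Nat.card (Matrix.ProjectiveSpecialLinearGroup (Fin 2) (ZMod p)) :=
        hc ▸ Dvd.intro _ (mul_assoc p (p - 1) (p + 1)).symm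
      rcases hp.out.dvd_mul.1 hd with h2 | h2
      · have := Nat.le_of_dvd hg0 h2; omega
      · exact (hp.out.coprime_iff_not_dvd.1 hco.symm) h2
  subst hp3
  refine ⟨rfl, K, φ.ker.map K.subtype, ?_⟩
  have e : (φ.ker.map K.subtype).subgroupOf K = φ.ker :=
    Subgroup.comap_map_eq_self_of_injective K.subtype_injective _
  have hn : ((φ.ker.map K.subtype).subgroupOf K).Normal := by rw [e]; infer_instance
  exact ⟨hn, hKH, ⟨(QuotientGroup.quotientMulEquivOfEq e).trans
    (QuotientGroup.quotientKerEquivOfSurjective φ hφ)⟩⟩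

/-- Two quadratic generators of a faithful group that is not a `p`-group. -/
theorem naturalPair_of_generators [Finite G] (hp2 : p ≠ 2) {V H : Subgroup G}
    (hV : IsElementaryAbelian p V) (hHV : H ≤ Subgroup.normalizer (V : Set G))
    (hf : H ⊓ Subgroup.centralizer (V : Set G) = ⊥) {a b : G}
    (hab : H = Subgroup.closure {a, b})
    (ha : ⁅⁅V, Subgroup.zpowers a⁆, Subgroup.zpowers a⁆ = ⊥)
    (hb : ⁅⁅V, Subgroup.zpowers b⁆, Subgroup.zpowers b⁆ = ⊥) (hnp : ¬ IsPGroup p H) :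
    Stability.HasNaturalPair p H V := by
  have haH : a ∈ H := hab ▸ Subgroup.subset_closure (by simp)
  have hbH : b ∈ H := hab ▸ Subgroup.subset_closure (by simp)
  refine Stability.natural_pair_of_not_isPActing hp2 hV haH hbH ha hb V le_rfl (hHV haH) (hHV hbH)
    fun hact => hnp fun g => ?_
  obtain ⟨k, hk⟩ := hact g (hab ▸ g.2)
  refine ⟨k, Subtype.ext ?_⟩
  rw [SubgroupClass.coe_pow]
  exact Subgroup.mem_bot.1 (hf ▸ Subgroup.mem_inf.2 ⟨pow_mem g.2 _, hk⟩)

/-- A faithful group with a quadratic element outside `O_p`. -/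
theorem naturalPair_of_not_pStable [Finite G] (hp2 : p ≠ 2) {V H : Subgroup G}
    (hV : IsElementaryAbelian p V) (hHV : H ≤ Subgroup.normalizer (V : Set G))
    (hf : H ⊓ Subgroup.centralizer (V : Set G) = ⊥) {a : G} (haH : a ∈ H)
    (hq : ⁅⁅V, Subgroup.zpowers a⁆, Subgroup.zpowers a⁆ = ⊥)
    (hna : a ∉ (pCore p H).map H.subtype) : Stability.HasNaturalPair p H V := by
  refine Stability.natural_pair_of_not_pCore hp2 hV hHV (C := ⊥) (fun h => ?_) (x := ⟨a, haH⟩) hq ?_
  · constructor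
    · intro hh
      rw [Subgroup.mem_bot] at hh
      rw [hh]; exact one_mem _
    · intro hh
      rw [Subgroup.mem_bot]
      exact Subtype.ext (Subgroup.mem_bot.1 (hf ▸ Subgroup.mem_inf.2 ⟨h.2, hh⟩))
  · intro hmem
    apply hna
    have h1 : QuotientGroup.quotientBot (QuotientGroup.mk (⟨a, haH⟩ : H)) ∈
        (pCore p (H ⧸ (⊥ : Subgroup H))).map (QuotientGroup.quotientBot (G := H)).toMonoidHom :=
      ⟨_, hmem, rfl⟩
    rw [PSolv.map_pCore_equiv] at h1
    exact ⟨⟨a, haH⟩, h1, rfl⟩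

end Cfsg.Agent.FF
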