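import Cfsg.Prelude.Def_PLocal
import Cfsg.Agent.Modules.Quadratic
import Cfsg.Agent.Cores.Fitting
import Cfsg.Agent.Subnormal.Join

/-!
Pairs of subnormal subgroups acting on an elementary abelian `p`-group.
-/

set_option autoImplicit false

open Cfsg
open scoped commutatorElement

namespace Cfsg.Agent.FF

variable {p : ℕ} [hp : Fact p.Prime] {G : Type*} [Group G] [Finite G]

/-- `X` is a subnormal subgroup of `H`. -/
def SubnIn {G : Type*} [Group G] (X H : Subgroup G) : Prop :=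
  X ≤ H ∧ (X.subgroupOf H).IsSubnormal

omit hp in
theorem SubnIn.sup {X Y H : Subgroup G} (hX : SubnIn X H) (hY : SubnIn Y H) :
    SubnIn (X ⊔ Y) H := by
  refine ⟨sup_le hX.1 hY.1, ?_⟩
  rw [Subgroup.subgroupOf_sup hX.1 hY.1]
  exact SubnormalLib.isSubnormal_sup hX.2 hY.2

omit hp in
theorem SubnIn.of_normal {X M H : Subgroup G} (hM : SubnIn M H) (hXM : X ≤ M)
    (hn : M ≤ Subgroup.normalizer (X : Set G)) : SubnIn X H := by
  refine ⟨hXM.trans hM.1, Subgroup.IsSubnormal.trans (Subgroup.comap_mono hXM) ?_ hM.2⟩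
  refine Subgroup.Normal.isSubnormal ?_
  refine (Subgroup.normal_subgroupOf_iff_le_normalizer (Subgroup.comap_mono hXM)).2 ?_
  exact (Subgroup.comap_mono hn).trans (Subgroup.le_normalizer_comap _)

theorem SubnIn.le_pCore {X H : Subgroup G} (hX : SubnIn X H) (hp' : IsPGroup p X) :
    X ≤ (pCore p H).map H.subtype := by
  have h1 := Cores.le_pCore_of_isSubnormal (p := p) hX.2 (hp'.comap_subtype (K := H))
  rw [← Subgroup.map_subgroupOf_eq_of_le hX.1]
  exact Subgroup.map_mono h1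

theorem SubnIn.eq_bot {X H : Subgroup G} (hX : SubnIn X H) (hp' : IsPGroup p X)
    (hOp : pCore p H = ⊥) : X = ⊥ := by
  have := hX.le_pCore hp'
  rwa [hOp, Subgroup.map_bot, le_bot_iff] at this

variable {V : Subgroup G}

omit hp in
/-- A quadratically acting subgroup of a faithful group is a `p`-group. -/
theorem isPGroup_of_quadratic {X H : Subgroup G} (hV : IsElementaryAbelian p V)
    (hHV : H ≤ Subgroup.normalizer (V : Set G))
    (hf : H ⊓ Subgroup.centralizer (V : Set G) = ⊥) (hXH : X ≤ H) (hq : ⁅⁅V, X⁆, X⁆ = ⊥) :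
    IsPGroup p X := by
  intro x
  refine ⟨1, Subtype.ext ?_⟩
  rw [pow_one, SubgroupClass.coe_pow]
  exact Subgroup.mem_bot.1 (hf ▸ Subgroup.mem_inf.2 ⟨pow_mem (hXH x.2) p,
    Modules.pow_mem_centralizer_of_quadratic hV (hXH.trans hHV) hq x.2⟩)

omit hp in
/-- `A` normalizes `[A, B]`. -/
theorem le_normalizer_commutator_left (A B : Subgroup G) :
    A ≤ Subgroup.normalizer ((⁅A, B⁆ : Subgroup G) : Set G) := by
  intro x hx
  rw [Subgroup.mem_normalizer_iff_map_conj_eq]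
  refine Subgroup.eq_of_le_of_card_ge ?_
    (by rw [Subgroup.card_map_of_injective (MulAut.conj x).injective])
  rw [Subgroup.map_le_iff_le_comap, Subgroup.commutator_le]
  intro a ha b hb
  change x * ⁅a, b⁆ * x⁻¹ ∈ ⁅A, B⁆
  rw [show x * ⁅a, b⁆ * x⁻¹ = ⁅x * a, b⁆ * ⁅x, b⁆⁻¹ by simp only [commutatorElement_def]; group]
  exact mul_mem (Subgroup.commutator_mem_commutator (mul_mem hx ha) hb)
    (inv_mem (Subgroup.commutator_mem_commutator hx hb))

/-- If `[V, A, B] = 1` for subnormal `A`, `B` of a faithful group `H`, then `[A, B] ≤ O_p(H)`. -/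
theorem commutator_le_pCore {H A B : Subgroup G} (hV : IsElementaryAbelian p V)
    (hHV : H ≤ Subgroup.normalizer (V : Set G))
    (hf : H ⊓ Subgroup.centralizer (V : Set G) = ⊥) (hA : SubnIn A H) (hB : SubnIn B H)
    (hc : ⁅⁅V, A⁆, B⁆ = ⊥) : ⁅A, B⁆ ≤ (pCore p H).map H.subtype := by
  set X := ⁅V, A⁆
  have hAX : A ≤ Subgroup.normalizer (X : Set G) :=
    Modules.normalizes_commutator (hA.1.trans hHV)
  have hBX : B ≤ Subgroup.centralizer (X : Set G) :=
    Subgroup.le_centralizer_iff.1 (Subgroup.commutator_eq_bot_iff_le_centralizer.1 hc)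
  have hgen : ∀ a ∈ A, ∀ b ∈ B, ⁅a, b⁆ ∈ Subgroup.centralizer (X : Set G) := by
    intro a ha b hb
    rw [commutatorElement_def]
    exact mul_mem ((Subgroup.mem_normalizer_iff.1
      (Modules.normalizes_centralizer hAX ha) b).1 (hBX hb)) (inv_mem (hBX hb))
  have hDle : ⁅A, B⁆ ≤ H := Subgroup.commutator_le.2 fun a ha b hb => by
    rw [commutatorElement_def]
    exact mul_mem (mul_mem (mul_mem (hA.1 ha) (hB.1 hb)) (inv_mem (hA.1 ha))) (inv_mem (hB.1 hb))
  have hDX : ⁅A, B⁆ ≤ Subgroup.centralizer (X : Set G) := Subgroup.commutator_le.2 hgen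
  have hVD : ⁅V, ⁅A, B⁆⁆ ≤ X := by
    refine Modules.commutator_le_of_closure (S := {g | ∃ a ∈ A, ∃ b ∈ B, ⁅a, b⁆ = g})
      (Subgroup.commutator_def A B).le ?_ ?_
    · rintro _ ⟨a, ha, b, hb, rfl⟩
      exact Subgroup.centralizer_le_normalizer _ (hgen a ha b hb)
    · rintro _ ⟨a, ha, b, hb, rfl⟩ v hv
      have e : ⁅v, ⁅a, b⁆⁆ =
          ⁅v, a⁆ * (a * (b * ⁅b⁻¹ * v * b, a⁻¹⁆ * b⁻¹) * a⁻¹) := by
        simp only [commutatorElement_def]; group
      rw [e]
      refine mul_mem (Subgroup.commutator_mem_commutator hv ha)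
        ((Subgroup.mem_normalizer_iff.1 (hAX ha) _).1 ?_)
      have h1 : ⁅b⁻¹ * v * b, a⁻¹⁆ ∈ X := Subgroup.commutator_mem_commutator
        ((Subgroup.mem_normalizer_iff''.1 (hHV (hB.1 hb)) v).1 hv) (inv_mem ha)
      rw [← Subgroup.mem_centralizer_iff.1 (hBX hb) _ h1, mul_inv_cancel_right]
      exact h1
  have hq : ⁅⁅V, ⁅A, B⁆⁆, ⁅A, B⁆⁆ = ⊥ := by
    rw [eq_bot_iff, ← Subgroup.commutator_eq_bot_iff_le_centralizer.2
      (Subgroup.le_centralizer_iff.1 hDX)]
    exact Subgroup.commutator_mono hVD le_rfl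
  have hDM : ⁅A, B⁆ ≤ A ⊔ B := Subgroup.commutator_le.2 fun a ha b hb => by
    rw [commutatorElement_def]
    exact mul_mem (mul_mem (mul_mem (Subgroup.mem_sup_left ha) (Subgroup.mem_sup_right hb))
      (inv_mem (Subgroup.mem_sup_left ha))) (inv_mem (Subgroup.mem_sup_right hb))
  refine ((hA.sup hB).of_normal hDM ?_).le_pCore (isPGroup_of_quadratic hV hHV hf hDle hq)
  refine sup_le ?_ ?_
  · exact le_normalizer_commutator_left A B
  · rw [Subgroup.commutator_comm]; exact le_normalizer_commutator_left B A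

omit hp in
theorem commutator_sup_le {A B : Subgroup G} (hA : A ≤ Subgroup.normalizer (V : Set G))
    (hB : B ≤ Subgroup.normalizer (V : Set G)) : ⁅V, A ⊔ B⁆ ≤ ⁅V, A⁆ ⊔ ⁅V, B⁆ := by
  have hW : ⁅V, A⁆ ⊔ ⁅V, B⁆ ≤ V :=
    sup_le (Modules.commutator_le_of_normalizes hA) (Modules.commutator_le_of_normalizes hB)
  refine Modules.commutator_le_of_closure (Subgroup.sup_eq_closure A B).le
    (Set.union_subset ?_ ?_) ?_
  · exact Subgroup.le_normalizer_iff_commutator_le_left.2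
      ((Subgroup.commutator_mono hW le_rfl).trans le_sup_left)
  · exact Subgroup.le_normalizer_iff_commutator_le_left.2
      ((Subgroup.commutator_mono hW le_rfl).trans le_sup_right)
  · rintro s (hs | hs) v hv
    · exact Subgroup.mem_sup_left (Subgroup.commutator_mem_commutator hv hs)
    · exact Subgroup.mem_sup_right (Subgroup.commutator_mem_commutator hv hs)

/-- The hypotheses on a pair of subnormal irreducibly acting subgroups. -/
structure PairHyp (p : ℕ) {G : Type*} [Group G] (V E A B : Subgroup G) : Prop where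
  elem : IsElementaryAbelian p V
  norm : E ≤ Subgroup.normalizer (V : Set G)
  faith : E ⊓ Subgroup.centralizer (V : Set G) = ⊥
  gen : E = A ⊔ B
  snA : (A.subgroupOf E).IsSubnormal
  snB : (B.subgroupOf E).IsSubnormal
  core : pCore p ↥E = ⊥
  irrA : ∀ U : Subgroup G, U ≤ ⁅V, A⁆ → A ≤ Subgroup.normalizer (U : Set G) → U = ⊥ ∨ U = ⁅V, A⁆
  irrB : ∀ U : Subgroup G, U ≤ ⁅V, B⁆ → B ≤ Subgroup.normalizer (U : Set G) → U = ⊥ ∨ U = ⁅V, B⁆
  notAB : ¬ ⁅V, A⁆ ≤ ⁅V, B⁆
  notBA : ¬ ⁅V, B⁆ ≤ ⁅V, A⁆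
  cardA : 2 < Nat.card A
  cardB : 2 < Nat.card B

variable {E A B : Subgroup G}

omit hp [Finite G] in
theorem PairHyp.symm (h : PairHyp p V E A B) : PairHyp p V E B A :=
  ⟨h.elem, h.norm, h.faith, h.gen.trans (sup_comm A B), h.snB, h.snA, h.core, h.irrB, h.irrA,
    h.notBA, h.notAB, h.cardB, h.cardA⟩

omit hp [Finite G] in
theorem PairHyp.leA (h : PairHyp p V E A B) : A ≤ E := h.gen ▸ le_sup_left

omit hp [Finite G] in
theorem PairHyp.leB (h : PairHyp p V E A B) : B ≤ E := h.gen ▸ le_sup_right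

/-- A subnormal subgroup acting quadratically is trivial. -/
theorem PairHyp.eq_bot_of_quadratic (h : PairHyp p V E A B) {X : Subgroup G} (hX : SubnIn X E)
    (hq : ⁅⁅V, X⁆, X⁆ = ⊥) : X = ⊥ :=
  hX.eq_bot (isPGroup_of_quadratic h.elem h.norm h.faith hX.1 hq) h.core

theorem PairHyp.commutator_self (h : PairHyp p V E A B) : ⁅⁅V, A⁆, A⁆ = ⁅V, A⁆ := by
  have hn : A ≤ Subgroup.normalizer ((⁅V, A⁆ : Subgroup G) : Set G) :=
    Modules.normalizes_commutator (h.leA.trans h.norm)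
  refine (h.irrA _ (Modules.commutator_le_of_normalizes hn)
    (Modules.normalizes_commutator hn)).resolve_left fun hb => ?_
  have := h.eq_bot_of_quadratic ⟨h.leA, h.snA⟩ hb
  have hc := h.cardA
  rw [this, Subgroup.card_bot] at hc
  omega

/-- The case of an invariant commutator module. -/
theorem PairHyp.of_normalizes (h : PairHyp p V E A B)
    (hn : B ≤ Subgroup.normalizer ((⁅V, A⁆ : Subgroup G) : Set G)) :
    ⁅A, B⁆ = ⊥ ∧ ⁅V, A⁆ ⊓ ⁅V, B⁆ = ⊥ := by
  have hd : ⁅V, A⁆ ⊓ ⁅V, B⁆ = ⊥ :=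
    (h.irrB _ inf_le_right (Modules.normalizes_inf hn
      (Modules.normalizes_commutator (h.leB.trans h.norm)))).resolve_right
      fun he => h.notBA (he ▸ inf_le_left)
  refine ⟨?_, hd⟩
  have hc : ⁅⁅V, A⁆, B⁆ = ⊥ := le_bot_iff.1 (hd ▸ le_inf (Modules.commutator_le_of_normalizes hn)
    (Subgroup.commutator_mono (Modules.commutator_le_of_normalizes (h.leA.trans h.norm)) le_rfl))
  have := commutator_le_pCore h.elem h.norm h.faith ⟨h.leA, h.snA⟩ ⟨h.leB, h.snB⟩ hc
  rwa [h.core, Subgroup.map_bot, le_bot_iff] at this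

/-- Conjugation. -/
abbrev cj {G : Type*} [Group G] (g : G) (X : Subgroup G) : Subgroup G :=
  X.map (MulAut.conj g).toMonoidHom

omit hp [Finite G] in
theorem cj_mem {g x : G} {X : Subgroup G} (hx : x ∈ X) : g * x * g⁻¹ ∈ cj g X := ⟨x, hx, rfl⟩

omit hp [Finite G] in
theorem cj_cj (g k : G) (X : Subgroup G) : cj g (cj k X) = cj (g * k) X := by
  rw [cj, cj, cj, Subgroup.map_map, map_mul]
  rfl

omit hp [Finite G] in
theorem cj_self {g : G} {X : Subgroup G} (hg : g ∈ Subgroup.normalizer (X : Set G)) : cj g X = X :=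
  Subgroup.mem_normalizer_iff_map_conj_eq.1 hg

omit hp [Finite G] in
theorem mem_normalizer_of_cj {g : G} {X : Subgroup G} (hg : cj g X = X) :
    g ∈ Subgroup.normalizer (X : Set G) :=
  Subgroup.mem_normalizer_iff_map_conj_eq.2 hg

omit hp [Finite G] in
theorem cj_commutator {g : G} (hg : g ∈ Subgroup.normalizer (V : Set G)) (X : Subgroup G) :
    cj g ⁅V, X⁆ = ⁅V, cj g X⁆ := by
  rw [cj, Subgroup.map_commutator]
  exact congrArg (fun Y => ⁅Y, cj g X⁆) (cj_self hg)

omit hp in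
theorem cj_subnIn {g : G} {X H : Subgroup G} (hg : g ∈ H) (hX : SubnIn X H) :
    SubnIn (cj g X) H := by
  have hle : cj g X ≤ H := (Subgroup.map_mono hX.1).trans (cj_self (Subgroup.le_normalizer hg)).le
  refine ⟨hle, ?_⟩
  have e : (cj g X).subgroupOf H =
      (X.subgroupOf H).map (MulAut.conj (⟨g, hg⟩ : H)).toMonoidHom := by
    apply Subgroup.map_injective H.subtype_injective
    rw [Subgroup.map_subgroupOf_eq_of_le hle, Subgroup.map_map]
    change cj g X = _
    conv_lhs => rw [cj, ← Subgroup.map_subgroupOf_eq_of_le hX.1, Subgroup.map_map]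
    rfl
  rw [e]
  exact hX.2.map (MulAut.conj (⟨g, hg⟩ : H)).surjective

/-- The pair theorem. -/
theorem PairHyp.main : ∀ {E A B : Subgroup G}, PairHyp p V E A B →
    ⁅A, B⁆ = ⊥ ∧ ⁅V, A⁆ ⊓ ⁅V, B⁆ = ⊥ := by
  intro E
  induction hn : Nat.card E using Nat.strong_induction_on generalizing E with
  | _ n ih =>
  subst hn
  intro A B h
  by_cases hBn : B ≤ Subgroup.normalizer ((⁅V, A⁆ : Subgroup G) : Set G)
  · exact h.of_normalizes hBn
  by_cases hAn : A ≤ Subgroup.normalizer ((⁅V, B⁆ : Subgroup G) : Set G)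
  · obtain ⟨h1, h2⟩ := h.symm.of_normalizes hAn
    exact ⟨by rwa [Subgroup.commutator_comm], by rwa [inf_comm]⟩
  exfalso
  -- two distinct conjugates of one member commute
  have step : ∀ {A B : Subgroup G}, PairHyp p V E A B → ∀ g ∈ E,
      cj g ⁅V, A⁆ ≠ ⁅V, A⁆ →
      ⁅V, A⁆ ⊓ cj g ⁅V, A⁆ = ⊥ ∧ A ≤ Subgroup.centralizer (cj g ⁅V, A⁆ : Set G) ∧
        cj g A ≤ Subgroup.centralizer ((⁅V, A⁆ : Subgroup G) : Set G) := by
    intro A B h g hg hne
    have hgV := h.norm hg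
    have hsA : SubnIn A E := ⟨h.leA, h.snA⟩
    have hsF : SubnIn (cj g A) E := cj_subnIn hg hsA
    have hM : SubnIn (A ⊔ cj g A) E := hsA.sup hsF
    have hlt : Nat.card ↥(A ⊔ cj g A) < Nat.card E := by
      have hAne : A.subgroupOf E ≠ ⊤ := fun ht => h.notBA
        (Subgroup.commutator_mono le_rfl (h.leB.trans (Subgroup.subgroupOf_eq_top.1 ht)))
      obtain ⟨K, hKn, hAK, hK⟩ := (h.snA.lt_normal).resolve_left hAne
      have hMK : A ⊔ cj g A ≤ K.map E.subtype := by
        refine sup_le ((Subgroup.map_subgroupOf_eq_of_le h.leA).ge.trans (Subgroup.map_mono hAK)) ?_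
        rintro _ ⟨x, hx, rfl⟩
        exact ⟨⟨g, hg⟩ * ⟨x, h.leA hx⟩ * ⟨g, hg⟩⁻¹, hKn.conj_mem _ (hAK hx) _, rfl⟩
      refine lt_of_le_of_lt (Nat.le_of_dvd Nat.card_pos (Subgroup.card_dvd_of_le hMK)) ?_
      rw [Subgroup.card_map_of_injective E.subtype_injective]
      exact lt_of_le_of_ne (Subgroup.card_le_card_group K)
        fun he => hK.ne (Subgroup.eq_top_of_card_eq K he)
    have hWg : ⁅V, cj g A⁆ = cj g ⁅V, A⁆ := (cj_commutator hgV A).symm
    have hcard : Nat.card ↥(cj g ⁅V, A⁆) = Nat.card ↥⁅V, A⁆ :=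
      Subgroup.card_map_of_injective (MulAut.conj g).injective
    have hp' : PairHyp p V (A ⊔ cj g A) A (cj g A) := by
      refine ⟨h.elem, hM.1.trans h.norm,
        le_bot_iff.1 (h.faith ▸ inf_le_inf_right _ hM.1), rfl, ?_, ?_, ?_, h.irrA, ?_, ?_, ?_,
        h.cardA, ?_⟩
      · exact Subgroup.IsSubnormal.comap (Subgroup.inclusion hM.1) h.snA
      · exact Subgroup.IsSubnormal.comap (Subgroup.inclusion hM.1) hsF.2
      · have hsn : SubnIn ((pCore p ↥(A ⊔ cj g A)).map (A ⊔ cj g A).subtype) E :=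
          hM.of_normal (Subgroup.map_subtype_le _) (by
            refine le_trans ?_ (Subgroup.le_normalizer_map _)
            rw [Subgroup.normalizer_eq_top_iff.2 inferInstance, ← MonoidHom.range_eq_map,
              Subgroup.range_subtype])
        have h2 := hsn.eq_bot ((Cores.pCore_isPGroup (p := p) (G := ↥(A ⊔ cj g A))).map _) h.core
        exact (Subgroup.map_eq_bot_iff_of_injective _ (Subgroup.subtype_injective _)).1 h2
      · intro U hU hUn
        rw [hWg] at hU ⊢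
        have hg1 : cj g⁻¹ (cj g A) = A := by
          rw [cj_cj, inv_mul_cancel, cj_self (one_mem _)]
        have hg2 : cj g⁻¹ (cj g ⁅V, A⁆) = ⁅V, A⁆ := by
          rw [cj_cj, inv_mul_cancel, cj_self (one_mem _)]
        have hUeq : cj g (cj g⁻¹ U) = U := by
          rw [cj_cj, mul_inv_cancel, cj_self (one_mem _)]
        rcases h.irrA (cj g⁻¹ U) (hg2 ▸ Subgroup.map_mono hU) (hg1 ▸
          (Subgroup.map_mono hUn).trans (Subgroup.le_normalizer_map _)) with h0 | h0
        · exact Or.inl (by rw [← hUeq, h0, cj, Subgroup.map_bot])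
        · exact Or.inr (by rw [← hUeq, h0])
      · rw [hWg]
        exact fun hle => hne (Subgroup.eq_of_le_of_card_ge hle hcard.le).symm
      · rw [hWg]
        exact fun hle => hne (Subgroup.eq_of_le_of_card_ge hle hcard.ge)
      · rw [Subgroup.card_map_of_injective (MulAut.conj g).injective]
        exact h.cardA
    obtain ⟨hc, hd⟩ := ih _ hlt rfl hp'
    rw [hWg] at hd
    have hAV := h.leA.trans h.norm
    have hFV := hsF.1.trans h.norm
    have hAn : A ≤ Subgroup.normalizer ((⁅V, cj g A⁆ : Subgroup G) : Set G) := by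
      intro a ha
      refine mem_normalizer_of_cj ?_
      rw [cj_commutator (hAV ha)]
      exact congrArg (fun Y => ⁅V, Y⁆) (cj_self (Subgroup.centralizer_le_normalizer _
        ((Subgroup.commutator_eq_bot_iff_le_centralizer.1 hc) ha)))
    have hFn : cj g A ≤ Subgroup.normalizer ((⁅V, A⁆ : Subgroup G) : Set G) := by
      intro a ha
      refine mem_normalizer_of_cj ?_
      rw [cj_commutator (hFV ha)]
      exact congrArg (fun Y => ⁅V, Y⁆) (cj_self (Subgroup.centralizer_le_normalizer _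
        ((Subgroup.le_centralizer_iff.1 (Subgroup.commutator_eq_bot_iff_le_centralizer.1 hc)) ha)))
    refine ⟨hd, ?_, ?_⟩
    · rw [← hWg]
      refine Subgroup.le_centralizer_iff.1 (Subgroup.commutator_eq_bot_iff_le_centralizer.1 ?_)
      refine le_bot_iff.1 (hd ▸ le_inf ?_ ?_)
      · exact Subgroup.commutator_mono (Modules.commutator_le_of_normalizes hFV) le_rfl
      · exact (Modules.commutator_le_of_normalizes hAn).trans hWg.le
    · refine Subgroup.le_centralizer_iff.1 (Subgroup.commutator_eq_bot_iff_le_centralizer.1 ?_)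
      refine le_bot_iff.1 (hd ▸ le_inf (Modules.commutator_le_of_normalizes hFn) ?_)
      rw [← hWg]
      exact Subgroup.commutator_mono (Modules.commutator_le_of_normalizes hAV) le_rfl
  -- the image of `W` under `[-, b]`
  have side : ∀ {A B : Subgroup G}, PairHyp p V E A B → ∀ b ∈ B,
      b ∉ Subgroup.normalizer ((⁅V, A⁆ : Subgroup G) : Set G) →
      ⁅V, A⁆ ≤ ⁅⁅V, B⁆, A⁆ ∧ Nat.card ↥⁅V, A⁆ ≤ Nat.card ↥⁅V, B⁆ ∧
      (Nat.card ↥⁅V, B⁆ ≤ Nat.card ↥⁅V, A⁆ → ∀ x ∈ ⁅V, B⁆, ∃ w ∈ ⁅V, A⁆, ⁅w, b⁆ = x) := by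
    intro A B h b hb hbn
    have hne : cj b ⁅V, A⁆ ≠ ⁅V, A⁆ := fun he => hbn (mem_normalizer_of_cj he)
    obtain ⟨hd, hcen, -⟩ := step h b (h.leB hb) hne
    have hWV : ⁅V, A⁆ ≤ V := Modules.commutator_le_of_normalizes (h.leA.trans h.norm)
    refine ⟨?_, ?_⟩
    · conv_lhs => rw [← h.commutator_self]
      rw [Subgroup.commutator_le]
      intro w hw a ha
      have hy : a ∈ Subgroup.centralizer {b * w⁻¹ * b⁻¹} :=
        Subgroup.mem_centralizer_singleton_iff.2
          (Subgroup.mem_centralizer_iff.1 (hcen ha) _ (cj_mem (inv_mem hw))).symm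
      have e : ⁅⁅w, b⁆, a⁆ = ⁅w, a⁆ := by
        have he : ⁅w, b⁆ = w * (b * w⁻¹ * b⁻¹) := by rw [commutatorElement_def]; group
        rw [he, Modules.commutatorElement_mul_left, commutatorElement_eq_one_iff_mul_comm.2
          (Subgroup.mem_centralizer_singleton_iff.1 hy).symm, mul_one, mul_inv_cancel, one_mul]
      rw [← e]
      exact Subgroup.commutator_mem_commutator
        (Subgroup.commutator_mem_commutator (hWV hw) hb) ha
    let f : ↥⁅V, A⁆ → ↥⁅V, B⁆ := fun w =>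
      ⟨⁅(w : G), b⁆, Subgroup.commutator_mem_commutator (hWV w.2) hb⟩
    have hinj : Function.Injective f := by
      intro w w' hww
      have he : ⁅(w : G), b⁆ = ⁅(w' : G), b⁆ := congrArg Subtype.val hww
      have h1 : (w : G)⁻¹ * w' = b * ((w : G)⁻¹ * w') * b⁻¹ := by
        simp only [commutatorElement_def] at he
        have h2 : b * (w : G)⁻¹ * b⁻¹ = (w : G)⁻¹ * w' * (b * (w' : G)⁻¹ * b⁻¹) := by
          calc b * (w : G)⁻¹ * b⁻¹ = (w : G)⁻¹ * ((w : G) * b * (w : G)⁻¹ * b⁻¹) := by group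
            _ = _ := by rw [he]; group
        calc (w : G)⁻¹ * w'
            = (w : G)⁻¹ * w' * (b * (w' : G)⁻¹ * b⁻¹) * (b * (w' : G) * b⁻¹) := by group
          _ = b * (w : G)⁻¹ * b⁻¹ * (b * (w' : G) * b⁻¹) := by rw [← h2]
          _ = _ := by group
      have h3 : (w : G)⁻¹ * w' ∈ ⁅V, A⁆ ⊓ cj b ⁅V, A⁆ := Subgroup.mem_inf.2
        ⟨mul_mem (inv_mem w.2) w'.2, h1 ▸ cj_mem (mul_mem (inv_mem w.2) w'.2)⟩
      rw [hd, Subgroup.mem_bot, inv_mul_eq_one] at h3
      exact Subtype.ext h3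
    refine ⟨Nat.card_le_card_of_injective f hinj, fun hle x hx => ?_⟩
    obtain ⟨w, hw⟩ := (hinj.bijective_of_nat_card_le hle).surjective ⟨x, hx⟩
    exact ⟨w, w.2, congrArg Subtype.val hw⟩
  obtain ⟨b, hbB, hbn⟩ := SetLike.not_le_iff_exists.1 hBn
  obtain ⟨a, haA, han⟩ := SetLike.not_le_iff_exists.1 hAn
  obtain ⟨-, hle1, hsur⟩ := side h b hbB hbn
  obtain ⟨-, hle2, hsur'⟩ := side h.symm a haA han
  set W1 := ⁅V, A⁆
  set W2 := ⁅V, B⁆
  have hne1 : cj b W1 ≠ W1 := fun he => hbn (mem_normalizer_of_cj he)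
  obtain ⟨hd1, hcenA, -⟩ := step h b (h.leB hbB) hne1
  have hne2 : cj a W2 ≠ W2 := fun he => han (mem_normalizer_of_cj he)
  obtain ⟨hd2, hcenB, -⟩ := step h.symm a (h.leA haA) hne2
  have hVX : ⁅V, E⁆ ≤ W1 ⊔ W2 :=
    h.gen ▸ commutator_sup_le (h.leA.trans h.norm) (h.leB.trans h.norm)
  have hX : W1 ⊔ W2 ≤ W2 ⊔ cj a W2 := by
    refine sup_le (fun x hx => ?_) le_sup_left
    obtain ⟨w, hw, rfl⟩ := hsur' hle1 x hx
    rw [show ⁅w, a⁆ = w * (a * w⁻¹ * a⁻¹) by rw [commutatorElement_def]; group]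
    exact mul_mem (Subgroup.mem_sup_left hw) (Subgroup.mem_sup_right (cj_mem (inv_mem hw)))
  -- exactly two conjugates
  have two : ∀ c ∈ E, cj c W2 = W2 ∨ cj c W2 = cj a W2 := by
    intro c hc
    by_contra hcon
    push Not at hcon
    obtain ⟨-, -, h1⟩ := step h.symm c hc hcon.1
    have hne : cj (a⁻¹ * c) W2 ≠ W2 := fun he => hcon.2 (by
      conv_rhs => rw [← he, cj_cj, mul_inv_cancel_left])
    obtain ⟨-, -, h2⟩ := step h.symm (a⁻¹ * c) (mul_mem (inv_mem (h.leA haA)) hc) hne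
    have h3 : cj c B ≤ Subgroup.centralizer (cj a W2 : Set G) := by
      have := Subgroup.map_mono (f := (MulAut.conj a).toMonoidHom) h2
      change cj a (cj (a⁻¹ * c) B) ≤ _ at this
      rw [cj_cj, mul_inv_cancel_left] at this
      exact this.trans (Subgroup.map_centralizer_le_centralizer_image _ _)
    have h4 : cj c B ≤ Subgroup.centralizer ((W2 ⊔ cj a W2 : Subgroup G) : Set G) := by
      rw [Subgroup.le_centralizer_iff]
      exact sup_le (Subgroup.le_centralizer_iff.1 h1) (Subgroup.le_centralizer_iff.1 h3)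
    have hsn := cj_subnIn hc (⟨h.leB, h.snB⟩ : SubnIn B E)
    have hbot := h.eq_bot_of_quadratic hsn (by
      rw [eq_bot_iff, ← Subgroup.commutator_eq_bot_iff_le_centralizer.2
        (Subgroup.le_centralizer_iff.1 h4)]
      exact Subgroup.commutator_mono
        (((Subgroup.commutator_mono le_rfl hsn.1).trans hVX).trans hX) le_rfl)
    rw [Subgroup.map_eq_bot_iff_of_injective _ (MulAut.conj c).injective] at hbot
    have := h.cardB
    rw [hbot, Subgroup.card_bot] at this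
    omega
  set K := A ⊓ Subgroup.normalizer (W2 : Set G)
  have hKi : K.relIndex A ∣ 2 := by
    refine Subgroup.relIndex_dvd_two_iff.2 ⟨a, haA, fun c hc => ?_⟩
    by_cases hcK : c ∈ Subgroup.normalizer (W2 : Set G)
    · exact Or.inr (Subgroup.mem_inf.2 ⟨hc, hcK⟩)
    · refine Or.inl (Subgroup.mem_inf.2 ⟨mul_mem hc haA, mem_normalizer_of_cj ?_⟩)
      have h1 : cj c⁻¹ W2 = cj a W2 := by
        rcases two c⁻¹ (inv_mem (h.leA hc)) with h0 | h0
        · exact absurd (inv_mem_iff.1 (mem_normalizer_of_cj h0)) hcK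
        · exact h0
      rw [← cj_cj, ← h1, cj_cj, mul_inv_cancel, cj_self (one_mem _)]
  have hW1n : A ≤ Subgroup.normalizer (W1 : Set G) :=
    Modules.normalizes_commutator (h.leA.trans h.norm)
  have hK1 : K ≤ Subgroup.centralizer (W1 : Set G) := by
    intro k hk
    obtain ⟨hkA, hkn⟩ := Subgroup.mem_inf.1 hk
    rw [Subgroup.mem_centralizer_iff]
    intro w hw
    have hwV := Modules.commutator_le_of_normalizes (h.leA.trans h.norm) hw
    have hmem : k * ⁅w, b⁆ * k⁻¹ ∈ W2 :=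
      (Subgroup.mem_normalizer_iff.1 hkn _).1 (Subgroup.commutator_mem_commutator hwV hbB)
    obtain ⟨w', hw', hww⟩ := hsur hle2 _ hmem
    have hfix : k * (b * w⁻¹ * b⁻¹) * k⁻¹ = b * w⁻¹ * b⁻¹ :=
      mul_inv_eq_iff_eq_mul.2 (Subgroup.mem_centralizer_iff.1 (hcenA hkA) _
        (cj_mem (inv_mem hw))).symm
    have e1 : w' * (b * w'⁻¹ * b⁻¹) = k * w * k⁻¹ * (b * w⁻¹ * b⁻¹) := by
      have e2 : k * ⁅w, b⁆ * k⁻¹ = k * w * k⁻¹ * (k * (b * w⁻¹ * b⁻¹) * k⁻¹) := by
        rw [commutatorElement_def]; group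
      rw [hfix] at e2
      rw [← e2, ← hww, commutatorElement_def]; group
    have e3 : (k * w * k⁻¹)⁻¹ * w' = b * (w⁻¹ * w') * b⁻¹ := by
      calc (k * w * k⁻¹)⁻¹ * w'
          = (k * w * k⁻¹)⁻¹ * (w' * (b * w'⁻¹ * b⁻¹)) * (b * w' * b⁻¹) := by group
        _ = _ := by rw [e1]; group
    have h3 : (k * w * k⁻¹)⁻¹ * w' ∈ W1 ⊓ cj b W1 := Subgroup.mem_inf.2
      ⟨mul_mem (inv_mem ((Subgroup.mem_normalizer_iff.1 (hW1n hkA) w).1 hw)) hw',
        e3 ▸ cj_mem (mul_mem (inv_mem hw) hw')⟩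
    rw [hd1, Subgroup.mem_bot] at h3
    have h4 : w⁻¹ * w' = 1 := conj_eq_one_iff.1 (e3.symm.trans h3)
    rw [inv_mul_eq_one] at h3 h4
    rw [← h4] at h3
    exact (mul_inv_eq_iff_eq_mul.1 h3).symm
  have hKX : K ≤ Subgroup.centralizer ((W1 ⊔ W2 : Subgroup G) : Set G) := by
    rw [Subgroup.le_centralizer_iff]
    refine sup_le (Subgroup.le_centralizer_iff.1 hK1) (fun x hx => ?_)
    obtain ⟨w, hw, rfl⟩ := hsur hle2 x hx
    rw [Subgroup.mem_centralizer_iff]
    intro k hk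
    have h1 : k ∈ Subgroup.centralizer {w} := Subgroup.mem_centralizer_singleton_iff.2
      (Subgroup.mem_centralizer_iff.1 (hK1 hk) w hw).symm
    have h2 : k ∈ Subgroup.centralizer {b * w⁻¹ * b⁻¹} := Subgroup.mem_centralizer_singleton_iff.2
      (Subgroup.mem_centralizer_iff.1 (hcenA (Subgroup.mem_inf.1 hk).1) _
        (cj_mem (inv_mem hw))).symm
    rw [Subgroup.mem_centralizer_singleton_iff] at h1 h2
    rw [show ⁅w, b⁆ = w * (b * w⁻¹ * b⁻¹) by rw [commutatorElement_def]; group, ← mul_assoc, h1,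
      mul_assoc, h2, ← mul_assoc]
  have hKn : A ≤ Subgroup.normalizer (K : Set G) := by
    have hKA : K ≤ A := inf_le_left
    rcases (Nat.dvd_prime Nat.prime_two).1 hKi with h0 | h0
    · have : K = A := le_antisymm hKA (Subgroup.relIndex_eq_one.1 h0)
      rw [this]; exact Subgroup.le_normalizer
    · exact (Subgroup.normal_subgroupOf_iff_le_normalizer hKA).1
        (Subgroup.normal_of_index_eq_two h0)
  have hK0 : K = ⊥ := h.eq_bot_of_quadratic
    (SubnIn.of_normal (⟨h.leA, h.snA⟩ : SubnIn A E) inf_le_left hKn) (by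
      rw [eq_bot_iff, ← Subgroup.commutator_eq_bot_iff_le_centralizer.2
        (Subgroup.le_centralizer_iff.1 hKX)]
      exact Subgroup.commutator_mono
        ((Subgroup.commutator_mono le_rfl (inf_le_left.trans h.leA)).trans hVX) le_rfl)
  rw [hK0, Subgroup.relIndex_bot_left] at hKi
  exact absurd (Nat.le_of_dvd two_pos hKi) (not_le.2 h.cardA)

end Cfsg.Agent.FF
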